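import Cfsg.Agent.Lib.Spor.He.Main
import Cfsg.Agent.Lib.Spor.HeS.Main
import Cfsg.Agent.Lib.Spor.Mat4

set_option autoImplicit false
set_option maxRecDepth 100000
set_option Elab.async false
set_option exponentiation.threshold 100000

namespace Cfsg.Agent.Spor.HeL
open Cfsg.Agent.PG Cfsg.Agent.Spor

def act1_ws : List ℕ := [0x10c08060604060406040702060c,
  0x10c06060608040606040608,
  0x10907070406060409,
  0x108060a0406060406,
  0x10a060608]

theorem act1_ag_0 : allL ((agList 0 5 12)) (Ag He.A HeS.A 12 (ivl 0 136) 1 act1_ws 0) = true := by decide +kernel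

theorem act1_ag : ∀ c ∈ agList 0 5 12, (Ag He.A HeS.A 12 (ivl 0 136) 1 act1_ws 0) c = true :=
  (allL_spec act1_ag_0)

theorem act1_inv : invB HeS.A (kgens HeS.A 0) (ivl 0 136) = true := by decide +kernel

theorem act1 : ∀ j, 0 ≤ j → j < HeS.A.length → Acts (fun i => wp He.A 1 i) (bset (ivl 0 136))
    (wp He.A (nthD 1 act1_ws (j - 0))) (gp HeS.A j) :=
  acts_of_Ag He.hA HeS.hA (by norm_num) (by rw [HeS.hlen]; norm_num) act1_inv (by rw [HeS.hlen]; exact act1_ag)

def fix2_lv : List (ℕ × List (List ℕ) × ℕ × ℕ) := [(136, [[0x020c100c10040400000400], [0x02100c100c10080c04040204020c]], 9, 255),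
  (139, [[0x02080c100c040408060600100c], [0x020c100c080c080c08040404100400100602]], 6, 60),
  (151, [[0x02100c10080c0408040404000c00], [0x02100c080c081004100608000610], [0x02100c080c08100c040c040806000c00], [0x02100c080c08100c04040806000c00]], 2, 16),
  (199, [[0x020c100c080c080c040c04080600000c06], [0x02100c100c10080c080c04040c08000c00]], 2, 4)]

theorem fix2_ok : lbB HeS.A 6 0 fix2_lv [] = true := by decide +kernel

theorem fix2 : FixTriv (K HeS.A 0) (bset (ivl 136 391)) := by
  have := lb_fixTriv HeS.hA fix2_ok (by rw [KS_nil, HeS.card0]; decide +kernel) (B := bset (ivl 136 391))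
    (by simp only [mem_bset_ivl]; decide +kernel)
  rwa [KS_nil] at this

def codes : List ℕ := [0xb0c955ee, 0x1f4f749e, 0x174d0104, 0x5554101, 0xbb4d595c]

noncomputable def planes : List ℕ := [0x55555555555555555555555555555555555555555555555555555555555555550000000000000000000000000000000000,
  0x66666666666666666666666666666666666666666666666666666666666666660000000000000000000000000000000000,
  0x78787878787878787878787878787878787878787878787878787878787878780000000000000000000000000000000000,
  0x7f807f807f807f807f807f807f807f807f807f807f807f807f807f807f807f800000000000000000000000000000000000,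
  0x7fff80007fff80007fff80007fff80007fff80007fff80007fff80007fff80000000000000000000000000000000000000,
  0x7fffffff800000007fffffff800000007fffffff800000007fffffff800000000000000000000000000000000000000000,
  0x7fffffffffffffff80000000000000007fffffffffffffff80000000000000000000000000000000000000000000000000,
  0x7fffffffffffffffffffffffffffffff800000000000000000000000000000000000000000000000000000000000000000]

theorem fixA : FixTriv (K He.A 1) ((fun i => wp He.A 1 i) '' bset (ivl 0 136)) :=
  He.fixTriv1 (mem_image_of He.hA (i := 0) (by decide +kernel)) (mem_image_of He.hA (i := 74) (by decide +kernel)) (mem_image_of He.hA (i := 115) (by decide +kernel)) (mem_image_of He.hA (i := 17) (by decide +kernel)) (mem_image_of He.hA (i := 78) (by decide +kernel)) (mem_image_of He.hA (i := 1) (by decide +kernel))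

theorem fix1 : FixTriv (K HeS.A 0) (bset (ivl 0 136)) :=
  HeS.fixTriv0 (mem_bset_ivl.2 (by norm_num)) (mem_bset_ivl.2 (by norm_num)) (mem_bset_ivl.2 (by norm_num)) (mem_bset_ivl.2 (by norm_num)) (mem_bset_ivl.2 (by norm_num))

theorem sub : ∃ S : Subgroup (Equiv.Perm ℕ), S ≤ K He.A 1 ∧ Nonempty (S ≃* K HeS.A 0) :=
  sub_iso act1 (by decide +kernel) fix1 fixA


end Cfsg.Agent.Spor.HeL
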